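import Cfsg.Agent.H766.K5.IndexTwo
import Cfsg.Agent.H633.Principal
import Cfsg.Agent.CharactersDeep.FeitOddAux
import Cfsg.Agent.S0907
import Cfsg.Agent.S0947

/-!
# `k(B₀) = 5` and quotients with four members in the principal block

* `card_quot_ne_five` : a normal subgroup of even order is not in the kernel of all members;
* `not_eight_dvd` : if the principal `2`-block of `G ⧸ N` has four members, `4 ∣ |G ⧸ N|`, then the centralizer
  of a `2`-element `x ∉ N` with `x * x ∈ N` has order not divisible by `8`.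
-/

set_option autoImplicit false
set_option linter.unusedSectionVars false

open Cfsg Finset
open scoped ComplexConjugate

namespace Cfsg.Agent.H766.K5

open Cfsg.Agent.Characters.Core Cfsg.Agent.H703.Lat Cfsg.Agent.H633.Principal Cfsg.Agent.Blocks.Basic

universe u

variable {G : Type u} [Group G] [Finite G] {M : Ideal AlgInt}

theorem infl_injective (N : Subgroup G) [N.Normal] : Function.Injective (infl N) := by
  intro χ ψ h
  apply Subtype.ext
  funext x
  obtain ⟨g, rfl⟩ := QuotientGroup.mk_surjective x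
  exact congrFun (congrArg Subtype.val h) g

theorem charDegree_infl (N : Subgroup G) [N.Normal] (χ : IrrCharacter (G ⧸ N)) :
    charDegree (infl N χ : G → ℂ) = charDegree (χ : G ⧸ N → ℂ) := by
  unfold charDegree
  rfl

theorem infl_mem_B0 (hM : IsPModular 2 M) (N : Subgroup G) [N.Normal] {χ : IrrCharacter (G ⧸ N)}
    (h : χ ∈ B0 M (G ⧸ N)) : infl N χ ∈ B0 M G := by
  have := hM.2.1.isPrime
  rw [mem_B0] at h ⊢
  exact inflate_mem N h

/-- weak block orthogonality -/
theorem sum_B0 (hM : IsPModular 2 M) (x y : G) (hx : ¬ 2 ∣ orderOf x) (hy : 2 ∣ orderOf y) :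
    ∑ χ ∈ B0 M G, (χ : G → ℂ) x * conj ((χ : G → ℂ) y) = 0 := by
  have := finite_irr (G := G)
  have : Fact (Nat.Prime 2) := ⟨Nat.prime_two⟩
  have h := S0907.result 2 M hM (principalBlock M G) isPBlock_principal x y hx hy
  rw [← h, finsum_mem_eq_finite_toFinset_sum _ (Set.toFinite (principalBlock M G))]
  rfl

/-- A normal subgroup of even order is not in the kernel of all the members. -/
theorem card_quot_lt (hM : IsPModular 2 M) (N : Subgroup G) [N.Normal] (hN : 2 ∣ Nat.card N) :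
    (B0 M (G ⧸ N)).card < (B0 M G).card := by
  classical
  have hsub : (B0 M (G ⧸ N)).image (infl N) ⊆ B0 M G := by
    intro χ hχ
    obtain ⟨ψ, hψ, rfl⟩ := Finset.mem_image.1 hχ
    exact infl_mem_B0 hM N hψ
  have hcard : ((B0 M (G ⧸ N)).image (infl N)).card = (B0 M (G ⧸ N)).card :=
    Finset.card_image_of_injective _ (infl_injective N)
  rw [← hcard]
  refine lt_of_le_of_ne (Finset.card_le_card hsub) fun h => ?_
  have heq := Finset.eq_of_subset_of_card_le hsub h.ge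
  have : Fact (Nat.Prime 2) := ⟨Nat.prime_two⟩
  obtain ⟨z, hz⟩ := exists_prime_orderOf_dvd_card' 2 hN
  have hz' : orderOf (z : G) = 2 := by rw [Subgroup.orderOf_coe, hz]
  have h1 := sum_B0 hM (1 : G) (z : G) (by simp) (by rw [hz'])
  have h2 : ∑ χ ∈ B0 M G, (χ : G → ℂ) 1 * conj ((χ : G → ℂ) (z : G)) =
      ((∑ χ ∈ B0 M G, charDegree (χ : G → ℂ) ^ 2 : ℕ) : ℂ) := by
    push_cast
    refine Finset.sum_congr rfl fun χ hχ => ?_
    rw [← heq] at hχ
    obtain ⟨ψ, -, rfl⟩ := Finset.mem_image.1 hχ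
    have h3 : ((z : G) : G ⧸ N) = ((1 : G) : G ⧸ N) := (QuotientGroup.eq_one_iff _).2 z.2
    rw [infl_apply, infl_apply, h3, charDegree_infl, QuotientGroup.mk_one, irr_one_eq_charDegree ψ.2,
      Complex.conj_natCast, sq]
  rw [h2] at h1
  have h3 : ∑ χ ∈ B0 M G, charDegree (χ : G → ℂ) ^ 2 = 0 := by exact_mod_cast h1
  have h4 : charDegree (one G : G → ℂ) ^ 2 = 0 := (Finset.sum_eq_zero_iff.1 h3) _ (one_mem_B0 hM)
  rw [charDegree_one] at h4
  norm_num at h4

/-- If the principal block of the quotient has four members they are all of odd degree. -/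
theorem odd_of_card_four (hM : IsPModular 2 M) (h4 : 4 ∣ Nat.card G) (hk : (B0 M G).card = 4) :
    S 2 (B0 M G) = B0 M G := by
  have h1 := four_dvd_card hM (good_principal (G := G) hM) h4
  have h2 : 0 < (S 2 (B0 M G)).card := Finset.card_pos.2 ⟨_, one_mem_S (p := 2) (one_mem_B0 hM)⟩
  have hsub : S 2 (B0 M G) ⊆ B0 M G := Finset.filter_subset _ _
  refine Finset.eq_of_subset_of_card_le hsub ?_
  have := Nat.le_of_dvd h2 h1
  omega

/-- **The centralizer of a `2`-element outside of `N`.** -/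
theorem not_eight_dvd (hM : IsPModular 2 M) (hk : Nat.card (principalBlock M G) = 5) (N : Subgroup G) [N.Normal]
    (hkN : Nat.card (principalBlock M (G ⧸ N)) = 4) (h4 : 4 ∣ Nat.card (G ⧸ N)) {x : G} (hxN : x ∉ N)
    (hxx : x * x ∈ N) (hx : ∃ j : ℕ, orderOf x = 2 ^ j) :
    ¬ 8 ∣ Nat.card (Subgroup.centralizer ({x} : Set G)) := by
  classical
  have : Fact (Nat.Prime 2) := ⟨Nat.prime_two⟩
  intro h8
  have h4G : 4 ∣ Nat.card G := h4.trans (by
    rw [← Subgroup.index_eq_card]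
    exact N.index_dvd_card)
  obtain ⟨hS, hT⟩ := card_odd hM h4G hk
  have hkN' : (B0 M (G ⧸ N)).card = 4 := card_B0.trans hkN
  have hodd := odd_of_card_four hM h4 hkN'
  have hx1 : x ≠ 1 := fun h => hxN (h ▸ N.one_mem)
  have hxo : 2 ∣ orderOf x := by
    obtain ⟨j, hj⟩ := hx
    rw [hj]
    refine dvd_pow_self 2 fun h => hx1 ?_
    rw [h, pow_zero] at hj
    exact orderOf_eq_one_iff.1 hj
  set y : G ⧸ N := (x : G ⧸ N) with hy
  have hy1 : y ≠ 1 := fun h => hxN ((QuotientGroup.eq_one_iff x).1 h)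
  have hyo : orderOf y = 2 := by
    refine orderOf_eq_prime ?_ hy1
    rw [hy, ← QuotientGroup.mk_pow, QuotientGroup.eq_one_iff, sq]
    exact hxx
  -- the image of the principal block of the quotient
  have himg : (B0 M (G ⧸ N)).image (infl N) = S 2 (B0 M G) := by
    refine Finset.eq_of_subset_of_card_le ?_ ?_
    · intro χ hχ
      obtain ⟨ψ, hψ, rfl⟩ := Finset.mem_image.1 hχ
      rw [← hodd] at hψ
      rw [mem_S, charDegree_infl]
      exact ⟨infl_mem_B0 hM N (mem_S.1 hψ).1, (mem_S.1 hψ).2⟩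
    · rw [Finset.card_image_of_injective _ (infl_injective N), hkN', hS]
  obtain ⟨ζ, hζ⟩ := Finset.card_eq_one.1 hT
  have hζB : ζ ∈ B0 M G := (Finset.mem_filter.1 (show ζ ∈ T 2 (B0 M G) by
    rw [hζ]; exact Finset.mem_singleton_self _)).1
  have hsum : ∀ {A : Type} [AddCommMonoid A] (f : IrrCharacter G → A), ∑ χ ∈ B0 M G, f χ =
      f ζ + ∑ ψ ∈ B0 M (G ⧸ N), f (infl N ψ) := by
    intro A _ f
    have h1 : ∑ χ ∈ B0 M G, f χ = ∑ χ ∈ T 2 (B0 M G), f χ + ∑ χ ∈ S 2 (B0 M G), f χ := by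
      rw [S, T, Finset.sum_filter_add_sum_filter_not]
    rw [h1, hζ, Finset.sum_singleton, ← himg, Finset.sum_image fun a _ b _ h => infl_injective N h]
  -- `ζ` vanishes at `x`
  have hζx : (ζ : G → ℂ) x = 0 := by
    have h1 := sum_B0 hM (1 : G) x (by simp) hxo
    have h2 := sum_B0 hM (1 : G ⧸ N) y (by simp) (by rw [hyo])
    rw [hsum] at h1
    have h3 : ∑ ψ ∈ B0 M (G ⧸ N), (infl N ψ : G → ℂ) 1 * conj ((infl N ψ : G → ℂ) x) = 0 := by
      rw [← h2]
      rfl
    rw [h3, add_zero] at h1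
    rcases mul_eq_zero.1 h1 with h4 | h4
    · exact absurd h4 (Blocks.Basic.irr_one_ne_zero ζ.2)
    · exact (map_eq_zero _).1 h4
  -- the values at `y`
  have hval : ∀ ψ : IrrCharacter (G ⧸ N), ψ ∈ B0 M (G ⧸ N) → ∃ m : ℤ, (ψ : G ⧸ N → ℂ) y = m ∧ Odd m := by
    intro ψ hψ
    obtain ⟨m, hm, hm'⟩ := CharactersDeep.FeitOddAux.exists_int_apply ψ.2 hyo
    refine ⟨m, hm, ?_⟩
    have h1 := hm' (charDegree (ψ : G ⧸ N → ℂ)) (irr_one_eq_charDegree ψ.2)
    rw [← hodd] at hψ
    have h2 := (mem_S.1 hψ).2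
    have h3 : Odd ((charDegree (ψ : G ⧸ N → ℂ) : ℕ) : ℤ) := by
      rw [Int.odd_coe_nat, ← Nat.not_even_iff_odd, even_iff_two_dvd]
      exact h2
    have := h1.add_odd h3
    rwa [sub_add_cancel] at this
  choose! m hm hmo using hval
  -- the centralizer
  have h947 := (S0947.result 2 M hM x hx hx1 (1 : Subgroup.centralizer ({x} : Set G)) (by simp)).1
  have e1 : ∑ᶠ ξ ∈ principalBlock M G, ‖(ξ : G → ℂ) (x * ((1 : Subgroup.centralizer ({x} : Set G)) : G))‖ ^ 2 =
      ((∑ ψ ∈ B0 M (G ⧸ N), m ψ ^ 2 : ℤ) : ℝ) := by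
    have := finite_irr (G := G)
    rw [finsum_mem_eq_finite_toFinset_sum _ (Set.toFinite (principalBlock M G))]
    change ∑ χ ∈ B0 M G, ‖(χ : G → ℂ) (x * ((1 : Subgroup.centralizer ({x} : Set G)) : G))‖ ^ 2 = _
    rw [hsum]
    simp only [OneMemClass.coe_one, mul_one]
    rw [hζx, norm_zero, zero_pow two_ne_zero, zero_add]
    push_cast
    refine Finset.sum_congr rfl fun ψ hψ => ?_
    rw [infl_apply, ← hy, hm ψ hψ, Complex.norm_intCast, sq_abs]
  have e2 : ∑ᶠ ξ ∈ principalBlock M (Subgroup.centralizer ({x} : Set G)),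
      ‖(ξ : Subgroup.centralizer ({x} : Set G) → ℂ) 1‖ ^ 2 =
      ((∑ ψ ∈ B0 M (Subgroup.centralizer ({x} : Set G)),
        (charDegree (ψ : Subgroup.centralizer ({x} : Set G) → ℂ) : ℤ) ^ 2 : ℤ) : ℝ) := by
    have := finite_irr (G := Subgroup.centralizer ({x} : Set G))
    rw [finsum_mem_eq_finite_toFinset_sum _ (Set.toFinite (principalBlock M _))]
    push_cast
    refine Finset.sum_congr rfl fun ψ _ => ?_
    rw [irr_one_eq_charDegree ψ.2, Complex.norm_natCast]
  rw [e1, e2] at h947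
  have h5 : ∑ ψ ∈ B0 M (G ⧸ N), m ψ ^ 2 =
      ∑ ψ ∈ B0 M (Subgroup.centralizer ({x} : Set G)),
        (charDegree (ψ : Subgroup.centralizer ({x} : Set G) → ℂ) : ℤ) ^ 2 := by
    exact_mod_cast h947
  have h6 := dvd_sum_sq hM (good_principal (G := Subgroup.centralizer ({x} : Set G)) hM) (a := 3)
    (by simpa using h8)
  rw [← h5] at h6
  have h7 : (8 : ℤ) ∣ ∑ ψ ∈ B0 M (G ⧸ N), (m ψ ^ 2 - 1) := by
    refine Finset.dvd_sum fun ψ hψ => ?_
    obtain ⟨k, hk⟩ := hmo ψ hψ
    rw [hk]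
    have h8 : (2 : ℤ) ∣ k * (k + 1) := (Int.even_mul_succ_self k).two_dvd
    obtain ⟨l, hl⟩ := h8
    refine ⟨l, ?_⟩
    linear_combination 4 * hl
  rw [Finset.sum_sub_distrib, Finset.sum_const, hkN'] at h7
  norm_num at h6 h7
  omega

end Cfsg.Agent.H766.K5
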